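import Mathlib
import Cfsg.Prelude.Def_GeometricClasses
import Cfsg.Prelude.Def_Classical
import Cfsg.Agent.Lib.Helper40.PrimeOrderGL
import Cfsg.Agent.Lib.Helper40.DualPoly

/-!
# OTS (S5972): interface file

`Ω_{2d+1}(q)`, `q` odd, acting on totally singular `m`-spaces.  All package statements are closed
`Prop`s, universe polymorphic in the field.
-/

set_option autoImplicit false
open scoped MatrixGroups

namespace Cfsg.Agent.Lib.Helper40.OTS

open Polynomial Cfsg.Agent.Lib.Helper40.PrimeOrderGL Cfsg.Agent.Lib.Helper40.DualPoly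

universe u

/-- **[ODD]** an isometry of odd order lies in `Ω`. -/
def PkgOdd : Prop :=
  ∀ {F : Type u} [Field F] [Fintype F] (d : ℕ), Odd (Fintype.card F) →
    ∀ (x : GL (Unit ⊕ (Fin d ⊕ Fin d)) F) (k : ℕ), Odd k → x ^ k = 1 →
      (∀ v : Unit ⊕ (Fin d ⊕ Fin d) → F,
        Cfsg.quadFormOdd d F
          (Matrix.mulVec (x : Matrix (Unit ⊕ (Fin d ⊕ Fin d)) (Unit ⊕ (Fin d ⊕ Fin d)) F) v) =
            Cfsg.quadFormOdd d F v) →
      x ∈ Cfsg.Geo.omegaGL (Cfsg.quadFormOdd d F)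

/-- **[INV2-NEC]** for `q ≡ 3 (mod 4)` some involution of `Ω` fixes no totally singular
`d`-space. -/
def PkgInv2Nec : Prop :=
  ∀ {F : Type u} [Field F] [Fintype F] (d : ℕ), 1 ≤ d → Fintype.card F % 4 = 3 →
    ∃ x : GL (Unit ⊕ (Fin d ⊕ Fin d)) F, x ∈ Cfsg.Geo.omegaGL (Cfsg.quadFormOdd d F) ∧
      orderOf x = 2 ∧
      ∀ W : Submodule F (Unit ⊕ (Fin d ⊕ Fin d) → F), Module.finrank F ↥W = d →
        (∀ w ∈ W, Cfsg.quadFormOdd d F w = 0) →
        ¬ W.map (Matrix.toLin'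
          (x : Matrix (Unit ⊕ (Fin d ⊕ Fin d)) (Unit ⊕ (Fin d ⊕ Fin d)) F)) ≤ W

/-- **[INV2-SUF]** every involution of `Ω` fixes a totally singular `m`-space when `m < d` or
`q ≡ 1 (mod 4)`. -/
def PkgInv2Suf : Prop :=
  ∀ {F : Type u} [Field F] [Fintype F] (d m : ℕ), Odd (Fintype.card F) → m ≤ d →
    (m < d ∨ Fintype.card F % 4 = 1) →
    ∀ x : GL (Unit ⊕ (Fin d ⊕ Fin d)) F, x ∈ Cfsg.Geo.omegaGL (Cfsg.quadFormOdd d F) →
      orderOf x = 2 →
      ∃ W : Submodule F (Unit ⊕ (Fin d ⊕ Fin d) → F), Module.finrank F ↥W = m ∧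
        (∀ w ∈ W, Cfsg.quadFormOdd d F w = 0) ∧
        W.map (Matrix.toLin'
          (x : Matrix (Unit ⊕ (Fin d ⊕ Fin d)) (Unit ⊕ (Fin d ⊕ Fin d)) F)) ≤ W

/-- **[COUNT]** the number of totally singular `m`-spaces divides `∏_{j<m} (q^{2(d-j)} - 1)`. -/
def PkgCount : Prop :=
  ∀ {F : Type u} [Field F] [Fintype F] (d m : ℕ), Odd (Fintype.card F) → m ≤ d →
    Nat.card {W : Submodule F (Unit ⊕ (Fin d ⊕ Fin d) → F) //
        Module.finrank F ↥W = m ∧ (∀ w ∈ W, Cfsg.quadFormOdd d F w = 0)} ∣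
      ∏ j ∈ Finset.range m, (Fintype.card F ^ (2 * (d - j)) - 1)

/-- **[OW]** two isometries of odd order prime to the characteristic of a nondegenerate
quadratic form over a finite field of odd characteristic, with the same characteristic
polynomial, are conjugate under an isometry. -/
def PkgOW : Prop :=
  ∀ {F : Type u} [Field F] [Fintype F] {ι : Type} [Fintype ι] [DecidableEq ι]
    (Q : QuadraticForm F (ι → F)), (2 : F) ≠ 0 → (QuadraticMap.polarBilin Q).Nondegenerate →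
    ∀ (x y : Matrix ι ι F) (k : ℕ), Odd k → (k : F) ≠ 0 → x ^ k = 1 → y ^ k = 1 →
      (∀ v : ι → F, Q (Matrix.mulVec x v) = Q v) → (∀ v : ι → F, Q (Matrix.mulVec y v) = Q v) →
      x.charpoly = y.charpoly →
      ∃ h h' : Matrix ι ι F, h * h' = 1 ∧ (∀ v : ι → F, Q (Matrix.mulVec h v) = Q v) ∧
        h * x = y * h

/-- **[FLAG]** the characteristic polynomial of an isometry of order `r` fixing a totally
singular `m`-space `W` splits off the part on `W` and its dual. -/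
def PkgFlag : Prop :=
  ∀ {F : Type u} [Field F] [Fintype F] {ι : Type} [Fintype ι] [DecidableEq ι]
    (Q : QuadraticForm F (ι → F)), (QuadraticMap.polarBilin Q).Nondegenerate →
    ∀ {S : Finset F[X]} {r i : ℕ}, Factors S r i → (r : F) ≠ 0 →
    ∀ (dg : S → S), (∀ π : S, (dg π : F[X]) = dual (RingHom.id F) π.1) → (∀ π, dg (dg π) = π) →
    ∀ (x : Matrix ι ι F), (∀ v : ι → F, Q (Matrix.mulVec x v) = Q v) → x ^ r = 1 →
    ∀ (a : S → ℕ) (k₀ : ℕ), x.charpoly = chi S a k₀ →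
    ∀ (W : Submodule F (ι → F)) (m : ℕ), Module.finrank F ↥W = m → (∀ w ∈ W, Q w = 0) →
      W.map (Matrix.toLin' x) ≤ W →
      ∃ a₁ : S → ℕ, i * ∑ π, a₁ π ≤ m ∧ (∀ π, a₁ π + a₁ (dg π) ≤ a π) ∧
        2 * (m - i * ∑ π, a₁ π) ≤ k₀

end Cfsg.Agent.Lib.Helper40.OTS
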