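import Mathlib
import Cfsg.Agent.Lib.Helper40.OTS.Defs
import Cfsg.Agent.Lib.Helper40.SpIso
import Cfsg.Agent.Lib.Helper99.Quad3
import Cfsg.Agent.Lib.Helper14.Forms

/-!
# OTS (S5972): core

Model elements of `O_{2d+1}(q)` built from symplectic ones via the symmetric form
`B(v, w) = ω((x - x⁻¹) v, w)`, and the semisimple part of the criterion.
-/

set_option autoImplicit false
set_option linter.unusedSectionVars false
open scoped MatrixGroups

namespace Cfsg.Agent.Lib.Helper40.OTS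

open Matrix Module Polynomial Cfsg.Agent.Lib.Helper40.PrimeOrderGL
  Cfsg.Agent.Lib.Helper40.DualPoly

universe u

section model

variable {F : Type u} [Field F]

theorem finrank_prod_sub {M₁ M₂ : Type*} [AddCommGroup M₁] [Module F M₁] [AddCommGroup M₂]
    [Module F M₂] [FiniteDimensional F M₁] [FiniteDimensional F M₂]
    (p : Submodule F M₁) (q : Submodule F M₂) :
    finrank F (p.prod q) = finrank F p + finrank F q := by
  let φ : (p × q) ≃ₗ[F] (p.prod q) :=
    { toFun := fun x => ⟨(x.1.1, x.2.1), ⟨x.1.2, x.2.2⟩⟩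
      map_add' := fun x y => rfl
      map_smul' := fun c x => rfl
      invFun := fun x => (⟨x.1.1, x.2.1⟩, ⟨x.1.2, x.2.2⟩)
      left_inv := fun x => rfl
      right_inv := fun x => rfl }
  rw [← LinearEquiv.finrank_eq φ, Module.finrank_prod]

/-- A standard totally singular subspace of the odd form. -/
theorem ts_std (e γ : ℕ) (hγ : γ ≤ e) :
    ∃ W : Submodule F (Unit ⊕ (Fin e ⊕ Fin e) → F), finrank F W = γ ∧
      ∀ w ∈ W, Cfsg.quadFormOdd e F w = 0 := by
  classical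
  obtain ⟨g, hg⟩ : ∃ g : Fin γ → Unit ⊕ (Fin e ⊕ Fin e),
      g = fun j => Sum.inr (Sum.inl (Fin.castLE hγ j)) := ⟨_, rfl⟩
  have hginj : Function.Injective g := by
    intro a b hab
    rw [hg] at hab
    have h1 : Fin.castLE hγ a = Fin.castLE hγ b := Sum.inl_injective (Sum.inr_injective hab)
    exact Fin.castLE_injective hγ h1
  have hli : LinearIndependent F (fun j : Fin γ => (Pi.single (g j) (1 : F) :
      Unit ⊕ (Fin e ⊕ Fin e) → F)) := by
    have h1 := (Pi.basisFun F (Unit ⊕ (Fin e ⊕ Fin e))).linearIndependent.comp g hginj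
    have h2 : (⇑(Pi.basisFun F (Unit ⊕ (Fin e ⊕ Fin e))) ∘ g) =
        fun j : Fin γ => (Pi.single (g j) (1 : F) : Unit ⊕ (Fin e ⊕ Fin e) → F) := by
      funext j
      simp
    rw [h2] at h1
    exact h1
  refine ⟨Submodule.span F (Set.range (fun j : Fin γ => (Pi.single (g j) (1 : F) :
      Unit ⊕ (Fin e ⊕ Fin e) → F))), ?_, ?_⟩
  · rw [finrank_span_eq_card hli, Fintype.card_fin]
  · intro w hw
    have h1 : w (Sum.inl ()) = 0 ∧ ∀ i, w (Sum.inr (Sum.inr i)) = 0 := by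
      induction hw using Submodule.span_induction with
      | mem x hx =>
        obtain ⟨j, rfl⟩ := hx
        rw [hg]
        refine ⟨by simp, fun i => by simp⟩
      | zero => exact ⟨rfl, fun i => rfl⟩
      | add x y _ _ hx hy =>
        refine ⟨by rw [Pi.add_apply, hx.1, hy.1, add_zero], fun i => by
          rw [Pi.add_apply, hx.2 i, hy.2 i, add_zero]⟩
      | smul c x _ hx =>
        refine ⟨by rw [Pi.smul_apply, hx.1, smul_zero], fun i => by
          rw [Pi.smul_apply, hx.2 i, smul_zero]⟩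
    unfold Cfsg.quadFormOdd
    rw [h1.1]
    simp [h1.2]

variable [Fintype F]

/-- A nondegenerate quadratic space of odd dimension over a finite field is similar to the
standard one. -/
theorem odd_normal {U : Type u} [AddCommGroup U] [Module F U] [FiniteDimensional F U]
    (Q' : QuadraticForm F U) (hQ' : (QuadraticMap.polarBilin Q').Nondegenerate) (k : ℕ)
    (hdim : finrank F U = 2 * k + 1) :
    ∃ (c : F) (ψ : U ≃ₗ[F] (Unit ⊕ (Fin k ⊕ Fin k) → F)),
      ∀ u, Cfsg.quadFormOdd k F (ψ u) = c * Q' u := by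
  classical
  obtain ⟨k', e, f, hH, h | h | h⟩ := Cfsg.Agent.Lib.Helper99.witt Q' hQ'
  · obtain ⟨b, -, -⟩ := h
    have h3 := Module.finrank_eq_card_basis b
    simp only [Fintype.card_sum, Fintype.card_fin] at h3
    omega
  · obtain ⟨x₀, b, hx₀, hperp, hbe, hbf, hbx⟩ := h
    have h3 := Module.finrank_eq_card_basis b
    simp only [Fintype.card_sum, Fintype.card_fin, Fintype.card_unit] at h3
    have hk : k = k' := by omega
    subst hk
    have hH' : Cfsg.Agent.Lib.Helper99.HypFam Q' (fun i => b (Sum.inl (Sum.inl i)))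
        (fun i => b (Sum.inl (Sum.inr i))) := by
      have h4 : (fun i => b (Sum.inl (Sum.inl i))) = e := funext hbe
      have h5 : (fun i => b (Sum.inl (Sum.inr i))) = f := funext hbf
      rw [h4, h5]
      exact hH
    have hperp' : ∀ (j : Unit) i, QuadraticMap.polar Q' (b (Sum.inr j)) (b (Sum.inl (Sum.inl i))) = 0 ∧
        QuadraticMap.polar Q' (b (Sum.inr j)) (b (Sum.inl (Sum.inr i))) = 0 := by
      intro j i
      rw [hbx, hbe, hbf]
      exact hperp i
    have heval := Cfsg.Agent.Lib.Helper99.basis_eval Q' b hH' hperp'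
    obtain ⟨a, ha⟩ : ∃ a : F, a = Q' x₀ := ⟨_, rfl⟩
    have heval' : ∀ v, Q' v = ∑ i, b.repr v (Sum.inl (Sum.inl i)) * b.repr v (Sum.inl (Sum.inr i))
        + b.repr v (Sum.inr ()) * b.repr v (Sum.inr ()) * a := by
      intro v
      have h7 : ∑ j : Unit, b.repr v (Sum.inr j) • b (Sum.inr j) =
          b.repr v (Sum.inr ()) • x₀ := by
        rw [Fintype.sum_unique, ← hbx]
      rw [heval v, h7, QuadraticMap.map_smul, ha]
      rfl
    let ψ₀ : U →ₗ[F] (Unit ⊕ (Fin k ⊕ Fin k) → F) :=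
      LinearMap.pi (Sum.elim (fun _ => b.coord (Sum.inr ()))
        (Sum.elim (fun i => a⁻¹ • b.coord (Sum.inl (Sum.inl i)))
          (fun i => b.coord (Sum.inl (Sum.inr i)))))
    have hψ1 : ∀ u, ψ₀ u (Sum.inl ()) = b.repr u (Sum.inr ()) := fun u => rfl
    have hψ2 : ∀ u i, ψ₀ u (Sum.inr (Sum.inl i)) = a⁻¹ * b.repr u (Sum.inl (Sum.inl i)) :=
      fun u i => rfl
    have hψ3 : ∀ u i, ψ₀ u (Sum.inr (Sum.inr i)) = b.repr u (Sum.inl (Sum.inr i)) :=
      fun u i => rfl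
    have ha0 : a ≠ 0 := by rw [ha]; exact hx₀
    have hinj : Function.Injective ψ₀ := by
      rw [← LinearMap.ker_eq_bot, LinearMap.ker_eq_bot']
      intro u hu
      apply b.ext_elem
      intro j
      rw [map_zero, Finsupp.zero_apply]
      rcases j with (j | j) | j
      · have h4 := congrFun hu (Sum.inr (Sum.inl j))
        rw [hψ2, Pi.zero_apply] at h4
        exact (mul_eq_zero.1 h4).resolve_left (inv_ne_zero ha0)
      · have h4 := congrFun hu (Sum.inr (Sum.inr j))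
        rw [hψ3, Pi.zero_apply] at h4
        exact h4
      · have h4 := congrFun hu (Sum.inl ())
        rw [hψ1, Pi.zero_apply] at h4
        exact h4
    have hfr : finrank F U = finrank F (Unit ⊕ (Fin k ⊕ Fin k) → F) := by
      rw [hdim, Module.finrank_fintype_fun_eq_card, Fintype.card_sum, Fintype.card_sum,
        Fintype.card_fin, Fintype.card_unit]
      omega
    refine ⟨a⁻¹, LinearMap.linearEquivOfInjective ψ₀ hinj hfr, ?_⟩
    intro u
    have h5 : (LinearMap.linearEquivOfInjective ψ₀ hinj hfr) u = ψ₀ u := rfl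
    rw [h5, heval' u]
    unfold Cfsg.quadFormOdd
    rw [hψ1, mul_add, Finset.mul_sum]
    simp only [hψ2, hψ3]
    have h6 : a⁻¹ * (b.repr u (Sum.inr ()) * b.repr u (Sum.inr ()) * a) =
        b.repr u (Sum.inr ()) ^ 2 := by
      field_simp
    rw [h6, add_comm]
    congr 1
    apply Finset.sum_congr rfl
    intro i _
    ring
  · obtain ⟨x, y, b, -⟩ := h
    have h3 := Module.finrank_eq_card_basis b
    simp only [Fintype.card_sum, Fintype.card_fin] at h3
    omega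

end model

section model2

variable {F : Type u} [Field F] [Fintype F]

/-- The model: an isometry of the odd form built from a fixed-point-free symplectic element of
odd order, with an invariant totally singular subspace built from an invariant totally isotropic
one. -/
theorem model (h2 : (2 : F) ≠ 0) {n e : ℕ}
    (xs xs' : Matrix (Fin n ⊕ Fin n) (Fin n ⊕ Fin n) F)
    (hx : xs ∈ Matrix.symplecticGroup (Fin n) F) (hxx' : xs * xs' = 1) (r : ℕ) (hr : Odd r)
    (hxr : xs ^ r = 1) (hfix : ∀ v : Fin n ⊕ Fin n → F, xs *ᵥ v = v → v = 0)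
    (Ws : Submodule F (Fin n ⊕ Fin n → F))
    (hWti : ∀ u ∈ Ws, ∀ v ∈ Ws, Cfsg.sympForm n F u v = 0)
    (hWinv : Ws.map (Matrix.toLin' xs) ≤ Ws) (γ : ℕ) (hγ : γ ≤ e) :
    ∃ y : Matrix (Unit ⊕ (Fin (n + e) ⊕ Fin (n + e))) (Unit ⊕ (Fin (n + e) ⊕ Fin (n + e))) F,
      (∀ v, Cfsg.quadFormOdd (n + e) F (y *ᵥ v) = Cfsg.quadFormOdd (n + e) F v) ∧ y ^ r = 1 ∧
      y.charpoly = (X - C 1) ^ (2 * e + 1) * xs.charpoly ∧
      ∃ W : Submodule F (Unit ⊕ (Fin (n + e) ⊕ Fin (n + e)) → F),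
        finrank F W = finrank F Ws + γ ∧ (∀ w ∈ W, Cfsg.quadFormOdd (n + e) F w = 0) ∧
        W.map (Matrix.toLin' y) ≤ W := by
  classical
  have hx'x : xs' * xs = 1 := mul_eq_one_comm.mp hxx'
  have hinv1 : ∀ u v : Fin n ⊕ Fin n → F,
      Cfsg.sympForm n F (xs *ᵥ u) v = Cfsg.sympForm n F u (xs' *ᵥ v) := by
    intro u v
    have h := Helper13.sympForm_mulVec_of_mem n hx u (xs' *ᵥ v)
    rw [Matrix.mulVec_mulVec, hxx', Matrix.one_mulVec] at h
    exact h
  have hinv2 : ∀ u v : Fin n ⊕ Fin n → F,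
      Cfsg.sympForm n F (xs' *ᵥ u) v = Cfsg.sympForm n F u (xs *ᵥ v) := by
    intro u v
    have h := Helper13.sympForm_mulVec_of_mem n hx (xs' *ᵥ u) v
    rw [Matrix.mulVec_mulVec, hxx', Matrix.one_mulVec] at h
    exact h.symm
  obtain ⟨D, hD⟩ : ∃ D : Matrix (Fin n ⊕ Fin n) (Fin n ⊕ Fin n) F, D = xs - xs' := ⟨_, rfl⟩
  have hsym : ∀ u v : Fin n ⊕ Fin n → F,
      Cfsg.sympForm n F (D *ᵥ u) v = Cfsg.sympForm n F (D *ᵥ v) u := by
    intro u v
    have e1 : Cfsg.sympForm n F (D *ᵥ u) v =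
        Cfsg.sympForm n F u (xs' *ᵥ v) - Cfsg.sympForm n F u (xs *ᵥ v) := by
      rw [hD, Matrix.sub_mulVec, Helper13.sympForm_sub_left, hinv1, hinv2]
    have e2 : Cfsg.sympForm n F (D *ᵥ v) u =
        Cfsg.sympForm n F (xs *ᵥ v) u - Cfsg.sympForm n F (xs' *ᵥ v) u := by
      rw [hD, Matrix.sub_mulVec, Helper13.sympForm_sub_left]
    rw [e1, e2, Helper13.sympForm_swap n u (xs' *ᵥ v), Helper13.sympForm_swap n u (xs *ᵥ v)]
    ring
  have hDinj : ∀ v : Fin n ⊕ Fin n → F, D *ᵥ v = 0 → v = 0 := by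
    intro v hv
    have h1 : xs *ᵥ v = xs' *ᵥ v := by
      rw [hD, Matrix.sub_mulVec] at hv
      exact sub_eq_zero.1 hv
    have h2' : (xs * xs) *ᵥ v = v := by
      rw [← Matrix.mulVec_mulVec, h1, Matrix.mulVec_mulVec, hxx', Matrix.one_mulVec]
    have h3 : ∀ j : ℕ, ((xs * xs) ^ j) *ᵥ v = v := by
      intro j
      induction j with
      | zero => simp
      | succ j ih => rw [pow_succ, ← Matrix.mulVec_mulVec, h2', ih]
    obtain ⟨j, hj⟩ := hr
    apply hfix
    have h5 : xs ^ r = xs * (xs * xs) ^ j := by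
      rw [hj, pow_succ', pow_mul, pow_two]
    have h6 : (xs ^ r) *ᵥ v = v := by rw [hxr, Matrix.one_mulVec]
    rw [h5, ← Matrix.mulVec_mulVec, h3] at h6
    exact h6
  have hDx : D * xs = xs * D := by
    rw [hD, sub_mul, mul_sub, hx'x, hxx']
  let B₁ : LinearMap.BilinForm F (Fin n ⊕ Fin n → F) :=
    LinearMap.BilinForm.comp ((2⁻¹ : F) • Helper13.sympBilin n F) (Matrix.toLin' D)
      LinearMap.id
  have hB₁ : ∀ u v, B₁ u v = 2⁻¹ * Cfsg.sympForm n F (D *ᵥ u) v := by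
    intro u v
    show ((2⁻¹ : F) • Helper13.sympBilin n F) (Matrix.toLin' D u) v = _
    rw [LinearMap.smul_apply, LinearMap.smul_apply, Helper13.sympBilin_apply,
      Matrix.toLin'_apply, smul_eq_mul]
  let Q₁ : QuadraticForm F (Fin n ⊕ Fin n → F) := LinearMap.BilinMap.toQuadraticMap B₁
  have hQ₁ : ∀ v, Q₁ v = 2⁻¹ * Cfsg.sympForm n F (D *ᵥ v) v := fun v => hB₁ v v
  have hpol₁ : ∀ u v, QuadraticMap.polar Q₁ u v = Cfsg.sympForm n F (D *ᵥ u) v := by
    intro u v
    have h1 : QuadraticMap.polar Q₁ u v = B₁ u v + B₁ v u := by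
      have hq : ∀ w, Q₁ w = B₁ w w := fun _ => rfl
      simp only [QuadraticMap.polar, hq, map_add, LinearMap.add_apply]
      ring
    rw [h1, hB₁, hB₁, hsym v u]
    have h3 : (2⁻¹ : F) + 2⁻¹ = 1 := by
      rw [← two_mul, mul_inv_cancel₀ h2]
    linear_combination Cfsg.sympForm n F (D *ᵥ u) v * h3
  let Q₂ : QuadraticForm F (Unit ⊕ (Fin e ⊕ Fin e) → F) := Cfsg.Agent.Lib.Helper14.oddQF e F
  have hQ₂ : ∀ v, Q₂ v = Cfsg.quadFormOdd e F v := by
    intro v
    show (Cfsg.Agent.Lib.Helper14.oddQF e F) v = _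
    rw [Cfsg.Agent.Lib.Helper14.oddQF_coe]
  have hQ₂nd : (QuadraticMap.polarBilin Q₂).Nondegenerate :=
    Cfsg.Agent.Lib.Helper14.oddQF_nondegenerate e F h2
  let Q' : QuadraticForm F ((Fin n ⊕ Fin n → F) × (Unit ⊕ (Fin e ⊕ Fin e) → F)) :=
    QuadraticMap.prod Q₁ Q₂
  have hQ' : ∀ u, Q' u = Q₁ u.1 + Q₂ u.2 := fun u => rfl
  have hQ'nd : (QuadraticMap.polarBilin Q').Nondegenerate := by
    have hL : ∀ x, (∀ y, QuadraticMap.polar Q' x y = 0) → x = 0 := by
      intro x hx0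
      have h1 : x.1 = 0 := by
        apply hDinj
        apply (Helper13.sympBilin_nondegenerate (m := n) (F := F)).1
        intro w
        have h3 := hx0 (w, 0)
        rw [QuadraticMap.polar_prod] at h3
        simp only [QuadraticMap.polar_zero_right, add_zero] at h3
        rw [Helper13.sympBilin_apply, ← hpol₁]
        exact h3
      have h2'' : x.2 = 0 := by
        apply hQ₂nd.1
        intro w
        have h3 := hx0 (0, w)
        rw [QuadraticMap.polar_prod] at h3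
        simp only [QuadraticMap.polar_zero_right, zero_add] at h3
        exact h3
      exact Prod.ext h1 h2''
    exact ⟨fun x hx0 => hL x hx0, fun y hy => hL y (fun x => by
      have h := hy x
      rw [QuadraticMap.polarBilin_apply_apply] at h
      rw [QuadraticMap.polar_comm]
      exact h)⟩
  have hdim : finrank F ((Fin n ⊕ Fin n → F) × (Unit ⊕ (Fin e ⊕ Fin e) → F)) =
      2 * (n + e) + 1 := by
    rw [Module.finrank_prod, Module.finrank_fintype_fun_eq_card,
      Module.finrank_fintype_fun_eq_card]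
    simp only [Fintype.card_sum, Fintype.card_fin, Fintype.card_unit]
    omega
  obtain ⟨c, ψ, hψ⟩ := odd_normal Q' hQ'nd (n + e) hdim
  let y' : Module.End F ((Fin n ⊕ Fin n → F) × (Unit ⊕ (Fin e ⊕ Fin e) → F)) :=
    (Matrix.toLin' xs).prodMap LinearMap.id
  have hy' : ∀ u, y' u = (xs *ᵥ u.1, u.2) := by
    intro u
    rw [show y' u = ((Matrix.toLin' xs) u.1, u.2) from rfl, Matrix.toLin'_apply]
  have hQ₁x : ∀ v, Q₁ (xs *ᵥ v) = Q₁ v := by
    intro v
    rw [hQ₁, hQ₁, Matrix.mulVec_mulVec, hDx, ← Matrix.mulVec_mulVec,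
      Helper13.sympForm_mulVec_of_mem n hx]
  have hy'Q : ∀ u, Q' (y' u) = Q' u := by
    intro u
    rw [hQ', hQ', hy', hQ₁x]
  have hy'pow : ∀ (j : ℕ) u, (y' ^ j) u = ((xs ^ j) *ᵥ u.1, u.2) := by
    intro j
    induction j with
    | zero => intro u; simp
    | succ j ih =>
      intro u
      rw [pow_succ, Module.End.mul_apply, ih, hy', Matrix.mulVec_mulVec, pow_succ xs j]
  obtain ⟨yl, hyl⟩ : ∃ yl : Module.End F (Unit ⊕ (Fin (n + e) ⊕ Fin (n + e)) → F),
      yl = ψ.conj y' := ⟨_, rfl⟩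
  have hyl_apply : ∀ v, yl v = ψ (y' (ψ.symm v)) := by
    intro v
    rw [hyl, LinearEquiv.conj_apply_apply]
  have hylpow : ∀ (j : ℕ) v, (yl ^ j) v = ψ ((y' ^ j) (ψ.symm v)) := by
    intro j
    induction j with
    | zero => intro v; simp
    | succ j ih =>
      intro v
      rw [pow_succ, Module.End.mul_apply, ih, hyl_apply, LinearEquiv.symm_apply_apply,
        pow_succ, Module.End.mul_apply]
  have hmv : ∀ v, (LinearMap.toMatrix' yl) *ᵥ v = yl v := by
    intro v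
    rw [← Matrix.toLin'_apply, Matrix.toLin'_toMatrix']
  obtain ⟨Wγ, hWγ, hWγts⟩ := ts_std (F := F) e γ hγ
  have hxinj : Function.Injective (Matrix.toLin' xs) := SpIso.toLin_injective xs hx
  have hWeq := SpIso.map_eq_of_le (Matrix.toLin' xs) hxinj Ws hWinv
  have hWD : ∀ u ∈ Ws, D *ᵥ u ∈ Ws := by
    intro u hu
    rw [hD, Matrix.sub_mulVec]
    apply Ws.sub_mem
    · apply hWinv
      exact ⟨u, hu, by rw [Matrix.toLin'_apply]⟩
    · have hu' := hu
      rw [← hWeq] at hu'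
      obtain ⟨u₀, hu₀, rfl⟩ := hu'
      rw [Matrix.toLin'_apply, Matrix.mulVec_mulVec, hx'x, Matrix.one_mulVec]
      exact hu₀
  refine ⟨LinearMap.toMatrix' yl, ?_, ?_, ?_, (Ws.prod Wγ).map (ψ : _ →ₗ[F] _), ?_, ?_, ?_⟩
  · intro v
    rw [hmv, hyl_apply, hψ, hy'Q, ← hψ, LinearEquiv.apply_symm_apply]
  · have h1 : yl ^ r = 1 := by
      apply LinearMap.ext
      intro v
      rw [hylpow, hy'pow, hxr, Matrix.one_mulVec, Module.End.one_apply]
      exact ψ.apply_symm_apply v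
    change LinearMap.toMatrixAlgEquiv' yl ^ r = 1
    rw [← map_pow, h1, map_one]
  · rw [← LinearMap.toMatrix_eq_toMatrix', LinearMap.charpoly_toMatrix, hyl,
      LinearEquiv.charpoly_conj, LinearMap.charpoly_prodMap, Matrix.charpoly_toLin', mul_comm]
    congr 1
    have h1 : (LinearMap.id : (Unit ⊕ (Fin e ⊕ Fin e) → F) →ₗ[F] _) = 1 := rfl
    rw [h1, LinearMap.charpoly_one, Module.finrank_fintype_fun_eq_card, map_one]
    congr 1
    simp only [Fintype.card_sum, Fintype.card_fin, Fintype.card_unit]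
    omega
  · rw [LinearEquiv.finrank_map_eq, finrank_prod_sub, hWγ]
  · rintro _ ⟨u, hu, rfl⟩
    have hu1 : u.1 ∈ Ws := hu.1
    have hu2 : u.2 ∈ Wγ := hu.2
    show Cfsg.quadFormOdd (n + e) F (ψ u) = 0
    rw [hψ, hQ', hQ₁, hWti _ (hWD _ hu1) _ hu1, hQ₂, hWγts _ hu2]
    simp
  · rintro _ ⟨_, ⟨u, hu, rfl⟩, rfl⟩
    have hu1 : u.1 ∈ Ws := hu.1
    have hu2 : u.2 ∈ Wγ := hu.2
    refine ⟨y' u, ?_, ?_⟩
    · rw [hy']
      refine ⟨?_, hu2⟩
      apply hWinv
      exact ⟨u.1, hu1, by rw [Matrix.toLin'_apply]⟩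
    · rw [Matrix.toLin'_apply, hmv]
      show ψ (y' u) = yl (ψ u)
      rw [hyl_apply, LinearEquiv.symm_apply_apply]

end model2

section semi

open Cfsg.Agent.Lib.Helper40.SpExist Cfsg.Agent.Lib.Helper40.GUPrimeOrder

variable {F : Type u} [Field F] [Fintype F]

/-- The characteristic polynomial of an isometry is self-dual. -/
theorem dual_charpoly_o {ι : Type} [Fintype ι] [DecidableEq ι] (Q : QuadraticForm F (ι → F))
    (hQ : (QuadraticMap.polarBilin Q).Nondegenerate) (x x' : Matrix ι ι F) (hxx' : x * x' = 1)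
    (hx : ∀ v : ι → F, Q (x *ᵥ v) = Q v) : dual (RingHom.id F) x.charpoly = x.charpoly := by
  classical
  obtain ⟨M, hM⟩ : ∃ M : Matrix ι ι F,
      M = LinearMap.BilinForm.toMatrix' (QuadraticMap.polarBilin Q) := ⟨_, rfl⟩
  have hdet : M.det ≠ 0 := by
    rw [hM, ← Matrix.nondegenerate_iff_det_ne_zero]
    exact LinearMap.BilinForm.Nondegenerate.toMatrix' hQ
  have hcomp : LinearMap.BilinForm.comp (QuadraticMap.polarBilin Q) (Matrix.toLin' x)
      (Matrix.toLin' x) = QuadraticMap.polarBilin Q := by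
    apply LinearMap.ext₂
    intro u v
    rw [LinearMap.BilinForm.comp_apply, Matrix.toLin'_apply, Matrix.toLin'_apply,
      QuadraticMap.polarBilin_apply_apply, QuadraticMap.polarBilin_apply_apply]
    exact Cfsg.Agent.Lib.Helper14.polar_mulVec Q x hx u v
  have h1 : xᵀ * M * x = M := by
    have h2 := congrArg LinearMap.BilinForm.toMatrix' hcomp
    rw [LinearMap.BilinForm.toMatrix'_comp, LinearMap.toMatrix'_toLin'] at h2
    rw [hM]
    exact h2
  have h3 : M * x' = xᵀ * M := by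
    calc M * x' = xᵀ * M * x * x' := by rw [h1]
      _ = xᵀ * M * (x * x') := by simp only [mul_assoc]
      _ = xᵀ * M := by rw [hxx', mul_one]
  have hMinv : M⁻¹ * M = 1 := Matrix.nonsing_inv_mul M (isUnit_iff_ne_zero.2 hdet)
  have hMinv' : M * M⁻¹ = 1 := Matrix.mul_nonsing_inv M (isUnit_iff_ne_zero.2 hdet)
  have h4 : x' = M⁻¹ * (xᵀ * M) := by
    rw [← h3, ← mul_assoc, hMinv, one_mul]
  have h5 : x'.charpoly = x.charpoly := by
    rw [h4, Matrix.charpoly_mul_comm, mul_assoc, hMinv', mul_one, Matrix.charpoly_transpose]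
  have h6 := charpoly_inv_eq x x' hxx'
  rw [h5] at h6
  unfold dual
  simpa using h6.symm

/-- The multiplicities of an isometry of order `r` are duality-invariant. -/
theorem symm_of_o {ι : Type} [Fintype ι] [DecidableEq ι] (Q : QuadraticForm F (ι → F))
    (hQ : (QuadraticMap.polarBilin Q).Nondegenerate) {S : Finset F[X]} {r i : ℕ}
    (hS : Factors S r i) (hr : 0 < r) (dg : S → S)
    (hdg : ∀ π : S, (dg π : F[X]) = dual (RingHom.id F) π.1) (hdd : ∀ π, dg (dg π) = π)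
    (x : Matrix ι ι F) (hx : ∀ v : ι → F, Q (x *ᵥ v) = Q v) (hxr : x ^ r = 1) (N : ℕ)
    (hN : Fintype.card ι = N) :
    ∃ a : S → ℕ, i * ∑ π, a π ≤ N ∧ x.charpoly = chi S a (N - i * ∑ π, a π) ∧
      ∀ π, a (dg π) = a π := by
  classical
  obtain ⟨a, ha, hχ⟩ := charpoly_eq_chi' hS x hxr N hN
  refine ⟨a, ha, hχ, ?_⟩
  have hxx' : x * x ^ (r - 1) = 1 := by
    rw [← pow_succ', Nat.sub_add_cancel hr, hxr]
  have h1 := dual_charpoly_o Q hQ x (x ^ (r - 1)) hxx' hx
  rw [hχ, dual_chi (RingHom.id F) dg hdd hdg] at h1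
  have h2 := chi_inj hS _ _ _ _ h1
  intro π
  exact congrFun h2 π

/-- Isometries of the odd form of order `r` with prescribed characteristic polynomial. -/
theorem exists_o_chi (p : ℕ) [Fact p.Prime] [CharP F p] (h2 : (2 : F) ≠ 0) {S : Finset F[X]}
    {r i : ℕ} (hS : Factors S r i) (hr : r.Prime) (hr2 : r ≠ 2) (hrF : (r : F) ≠ 0)
    (dg : S → S) (hdg : ∀ π : S, (dg π : F[X]) = dual (RingHom.id F) π.1) (d : ℕ)
    (a : S → ℕ) (ha : ∀ π, a (dg π) = a π) (hev : Even (i * ∑ π, a π))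
    (hle : i * ∑ π, a π ≤ 2 * d) :
    ∃ y : Matrix (Unit ⊕ (Fin d ⊕ Fin d)) (Unit ⊕ (Fin d ⊕ Fin d)) F,
      (∀ v, Cfsg.quadFormOdd d F (y *ᵥ v) = Cfsg.quadFormOdd d F v) ∧ y ^ r = 1 ∧
      y.charpoly = chi S a (2 * d + 1 - i * ∑ π, a π) := by
  classical
  obtain ⟨n, hn⟩ := hev
  obtain ⟨e, he⟩ : ∃ e, d = n + e := ⟨d - n, by omega⟩
  subst he
  obtain ⟨g, hgr, hgχ⟩ := SpImprim.exists_sp_chi p hS hr hr2 dg hdg n a ha (by omega)
  have h0 : 2 * n - i * ∑ π, a π = 0 := by omega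
  rw [h0] at hgχ
  have hfix0 := SpImprim.finrank_fix_of_chi hS hrF g.1 hgr a 0 hgχ
  have hfix : ∀ v : Fin n ⊕ Fin n → F, g.1 *ᵥ v = v → v = 0 := by
    intro v hv
    have h1 : v ∈ SpImprim.fixS (Matrix.toLin' g.1) := by
      rw [SpImprim.mem_fixS, Matrix.toLin'_apply]
      exact hv
    rw [Submodule.finrank_eq_zero.1 hfix0] at h1
    exact (Submodule.mem_bot F).1 h1
  have hgg' : g.1 * (g⁻¹).1 = 1 := by
    have := congrArg Subtype.val (mul_inv_cancel g)
    exact this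
  obtain ⟨y, hyQ, hyr, hyχ, -⟩ := model h2 g.1 (g⁻¹).1 g.2 hgg' r (hr.odd_of_ne_two hr2) hgr
    hfix ⊥ (fun u hu v _ => by
      rw [(Submodule.mem_bot F).1 hu]
      exact Helper13.sympForm_zero_left n v) (by rw [Submodule.map_bot]) 0 (Nat.zero_le e)
  refine ⟨y, hyQ, hyr, ?_⟩
  rw [hyχ, hgχ]
  have h3 : 2 * (n + e) + 1 - i * ∑ π, a π = 2 * e + 1 := by omega
  rw [h3]
  unfold chi
  rw [pow_zero, one_mul]

/-- An isometry of order `r` whose multiplicities split off a hyperbolic part fixes a totally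
singular subspace. -/
theorem exists_ts_of_split_o (hOW : PkgOW.{u}) (p : ℕ) [Fact p.Prime] [CharP F p]
    (h2 : (2 : F) ≠ 0) {S : Finset F[X]} {r i : ℕ}
    (hS : Factors S r i) (hr : r.Prime) (hr2 : r ≠ 2) (hrF : (r : F) ≠ 0)
    (dg : S → S) (hdg : ∀ π : S, (dg π : F[X]) = dual (RingHom.id F) π.1)
    (hdd : ∀ π, dg (dg π) = π) {d m : ℕ}
    (y : Matrix (Unit ⊕ (Fin d ⊕ Fin d)) (Unit ⊕ (Fin d ⊕ Fin d)) F)
    (hy : ∀ v, Cfsg.quadFormOdd d F (y *ᵥ v) = Cfsg.quadFormOdd d F v) (hyr : y ^ r = 1)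
    (a : S → ℕ) (hsym : ∀ π, a (dg π) = a π) (hev : Even (i * ∑ π, a π))
    (hle : i * ∑ π, a π ≤ 2 * d)
    (hχ : y.charpoly = chi S a (2 * d + 1 - i * ∑ π, a π))
    (a₁ : S → ℕ) (h1 : i * ∑ π, a₁ π ≤ m) (h2' : ∀ π, a₁ π + a₁ (dg π) ≤ a π)
    (h3 : 2 * (m - i * ∑ π, a₁ π) + i * ∑ π, a π ≤ 2 * d) :
    ∃ W : Submodule F (Unit ⊕ (Fin d ⊕ Fin d) → F), finrank F W = m ∧
      (∀ w ∈ W, Cfsg.quadFormOdd d F w = 0) ∧ W.map (Matrix.toLin' y) ≤ W := by
  classical
  obtain ⟨n, hn⟩ := hev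
  obtain ⟨e, he⟩ : ∃ e, d = n + e := ⟨d - n, by omega⟩
  subst he
  obtain ⟨g, hgr, hgχ⟩ := SpImprim.exists_sp_chi p hS hr hr2 dg hdg n a hsym (by omega)
  have h0 : 2 * n - i * ∑ π, a π = 0 := by omega
  have hgχ0 := hgχ
  rw [h0] at hgχ0
  have hfix0 := SpImprim.finrank_fix_of_chi hS hrF g.1 hgr a 0 hgχ0
  have hfix : ∀ v : Fin n ⊕ Fin n → F, g.1 *ᵥ v = v → v = 0 := by
    intro v hv
    have h4 : v ∈ SpImprim.fixS (Matrix.toLin' g.1) := by
      rw [SpImprim.mem_fixS, Matrix.toLin'_apply]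
      exact hv
    rw [Submodule.finrank_eq_zero.1 hfix0] at h4
    exact (Submodule.mem_bot F).1 h4
  have hgg' : g.1 * (g⁻¹).1 = 1 := by
    have := congrArg Subtype.val (mul_inv_cancel g)
    exact this
  obtain ⟨ed, hed⟩ : ∃ ed : S ≃ S, ∀ π, ed π = dg π := ⟨⟨dg, dg, hdd, hdd⟩, fun _ => rfl⟩
  have hsumdg : ∑ π, a₁ (dg π) = ∑ π, a₁ π := by
    rw [← Equiv.sum_comp ed a₁]
    exact Finset.sum_congr rfl (fun π _ => by rw [hed π])
  have hsum2 : 2 * ∑ π, a₁ π ≤ ∑ π, a π := by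
    have h4 : ∑ π, (a₁ π + a₁ (dg π)) ≤ ∑ π, a π := Finset.sum_le_sum (fun π _ => h2' π)
    rw [Finset.sum_add_distrib, hsumdg] at h4
    omega
  have hβ : i * ∑ π, a₁ π ≤ n := by
    have h4 : i * (2 * ∑ π, a₁ π) ≤ i * ∑ π, a π := Nat.mul_le_mul_left i hsum2
    have h5 : i * (2 * ∑ π, a₁ π) = 2 * (i * ∑ π, a₁ π) := by ring
    omega
  obtain ⟨Ws, hWsdim, hWsti, hWsinv⟩ := SpIso.exists_ti_of_split p hS hr hr2 hrF dg hdg hdd hβ
    g.1 g.2 hgr a hsym (by omega) hgχ a₁ le_rfl h2' (by omega)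
  have hγ : m - i * ∑ π, a₁ π ≤ e := by omega
  obtain ⟨y₀, hy₀Q, hy₀r, hy₀χ, W₀, hW₀dim, hW₀ts, hW₀inv⟩ :=
    model h2 g.1 (g⁻¹).1 g.2 hgg' r (hr.odd_of_ne_two hr2) hgr hfix Ws hWsti hWsinv
      (m - i * ∑ π, a₁ π) hγ
  have hχeq : y.charpoly = y₀.charpoly := by
    rw [hχ, hy₀χ, hgχ0]
    have h5 : 2 * (n + e) + 1 - i * ∑ π, a π = 2 * e + 1 := by omega
    rw [h5]
    unfold chi
    rw [pow_zero, one_mul]
  have hQc : ∀ v, (Cfsg.Agent.Lib.Helper14.oddQF (n + e) F) v = Cfsg.quadFormOdd (n + e) F v := by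
    intro v
    rw [Cfsg.Agent.Lib.Helper14.oddQF_coe]
  obtain ⟨h, h', hhh', hhQ, hcomm⟩ := hOW (Cfsg.Agent.Lib.Helper14.oddQF (n + e) F) h2
    (Cfsg.Agent.Lib.Helper14.oddQF_nondegenerate (n + e) F h2) y y₀ r (hr.odd_of_ne_two hr2) hrF
    hyr hy₀r (fun v => by rw [hQc, hQc]; exact hy v) (fun v => by rw [hQc, hQc]; exact hy₀Q v)
    hχeq
  have hh'h : h' * h = 1 := mul_eq_one_comm.mp hhh'
  have hyh' : y * h' = h' * y₀ := by
    calc y * h' = (h' * h) * y * h' := by rw [hh'h, one_mul]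
      _ = h' * (h * y) * h' := by simp only [mul_assoc]
      _ = h' * (y₀ * h) * h' := by rw [hcomm]
      _ = h' * y₀ * (h * h') := by simp only [mul_assoc]
      _ = h' * y₀ := by rw [hhh', mul_one]
  refine ⟨W₀.map ((Matrix.toLin'OfInv hhh' hh'h : _ ≃ₗ[F] _) : _ →ₗ[F] _), ?_, ?_, ?_⟩
  · rw [LinearEquiv.finrank_map_eq, hW₀dim, hWsdim]
    omega
  · rintro _ ⟨w, hw, rfl⟩
    show Cfsg.quadFormOdd (n + e) F (Matrix.toLin' h' w) = 0
    rw [Matrix.toLin'_apply]
    have h6 := hhQ (h' *ᵥ w)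
    rw [hQc, hQc, Matrix.mulVec_mulVec, hhh', Matrix.one_mulVec] at h6
    rw [← h6]
    exact hW₀ts w hw
  · rintro _ ⟨_, ⟨w, hw, rfl⟩, rfl⟩
    refine ⟨y₀ *ᵥ w, hW₀inv ⟨w, hw, by rw [Matrix.toLin'_apply]⟩, ?_⟩
    show Matrix.toLin' h' (y₀ *ᵥ w) = Matrix.toLin' y (Matrix.toLin' h' w)
    rw [Matrix.toLin'_apply, Matrix.toLin'_apply, Matrix.toLin'_apply, Matrix.mulVec_mulVec,
      Matrix.mulVec_mulVec, hyh']

end semi

section final

open Cfsg.Agent.Lib.Helper40.SpExist Cfsg.Agent.Lib.Helper40.GUPrimeOrder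

variable {F : Type u} [Field F] [Fintype F]

theorem two_ne_zero_of_odd (hodd : Odd (Fintype.card F)) : (2 : F) ≠ 0 := by
  intro h
  obtain ⟨p, hp⟩ := CharP.exists F
  have hprime : p.Prime := CharP.char_is_prime F p
  have : Fact p.Prime := ⟨hprime⟩
  have h1 : ((2 : ℕ) : F) = 0 := by exact_mod_cast h
  rw [CharP.cast_eq_zero_iff F p 2] at h1
  have h2 : p = 2 := (Nat.prime_dvd_prime_iff_eq hprime Nat.prime_two).1 h1
  have h3 : p ∣ Fintype.card F := Elusive.char_dvd_card p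
  rw [h2] at h3
  exact (Nat.not_even_iff_odd.2 hodd) (even_iff_two_dvd.2 h3)

/-- The characteristic does not divide the number of totally singular `m`-spaces. -/
theorem not_char_dvd_ts (hCount : PkgCount.{u}) (hodd : Odd (Fintype.card F)) (p : ℕ)
    [Fact p.Prime] [CharP F p] (d m : ℕ) (hm : m ≤ d) :
    ¬ p ∣ Nat.card {W : Submodule F (Unit ⊕ (Fin d ⊕ Fin d) → F) //
        finrank F W = m ∧ ∀ w ∈ W, Cfsg.quadFormOdd d F w = 0} := by
  intro h
  have hp : p.Prime := Fact.out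
  have hq : 2 ≤ Fintype.card F := Fintype.one_lt_card
  have h1 : p ∣ ∏ j ∈ Finset.range m, (Fintype.card F ^ (2 * (d - j)) - 1) :=
    h.trans (hCount d m hodd hm)
  obtain ⟨j, hj, hj2⟩ := (Prime.dvd_finsetProd_iff hp.prime _).1 h1
  have hj' := Finset.mem_range.1 hj
  have h2 : p ∣ Fintype.card F ^ (2 * (d - j)) :=
    dvd_pow (Elusive.char_dvd_card p) (by omega)
  have h3 : 1 ≤ Fintype.card F ^ (2 * (d - j)) := Nat.one_le_pow _ _ (by omega)
  have h4 : p ∣ 1 := by
    have := Nat.dvd_sub h2 hj2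
    rwa [Nat.sub_sub_self h3] at this
  exact hp.one_lt.ne' (Nat.dvd_one.1 h4)

/-- A prime dividing the number of totally singular `m`-spaces. -/
theorem exists_of_dvd_ts (hCount : PkgCount.{u}) (hodd : Odd (Fintype.card F)) (r : ℕ)
    [Fact r.Prime] (d m : ℕ) (hm : m ≤ d)
    (h : r ∣ Nat.card {W : Submodule F (Unit ⊕ (Fin d ⊕ Fin d) → F) //
        finrank F W = m ∧ ∀ w ∈ W, Cfsg.quadFormOdd d F w = 0}) :
    ∃ j, j < m ∧ orderOf ((Fintype.card F : ℕ) : ZMod r) ∣ 2 * (d - j) := by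
  have hr : r.Prime := Fact.out
  have hq : 2 ≤ Fintype.card F := Fintype.one_lt_card
  have h1 : r ∣ ∏ j ∈ Finset.range m, (Fintype.card F ^ (2 * (d - j)) - 1) :=
    h.trans (hCount d m hodd hm)
  obtain ⟨j, hj, hj2⟩ := (Prime.dvd_finsetProd_iff hr.prime _).1 h1
  exact ⟨j, Finset.mem_range.1 hj, (Elusive.dvd_pow_sub_one_iff _ r (by omega) _).1 hj2⟩

/-- Elements of `Ω` of order `r` with prescribed characteristic polynomial. -/
theorem exists_o_test (hOdd : PkgOdd.{u}) (hodd : Odd (Fintype.card F)) (p : ℕ) [Fact p.Prime]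
    [CharP F p] {S : Finset F[X]} {r i : ℕ}
    (hS : Factors S r i) (hr : r.Prime) (hr2 : r ≠ 2) (hrF : (r : F) ≠ 0)
    (dg : S → S) (hdg : ∀ π : S, (dg π : F[X]) = dual (RingHom.id F) π.1) (d : ℕ)
    (a : S → ℕ) (ha : ∀ π, a (dg π) = a π) (hev : Even (i * ∑ π, a π))
    (hle : i * ∑ π, a π ≤ 2 * d) (hpos : 0 < i * ∑ π, a π) :
    ∃ x : GL (Unit ⊕ (Fin d ⊕ Fin d)) F, x ∈ Cfsg.Geo.omegaGL (Cfsg.quadFormOdd d F) ∧
      orderOf x = r ∧
      (∀ v, Cfsg.quadFormOdd d F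
        ((x : Matrix (Unit ⊕ (Fin d ⊕ Fin d)) (Unit ⊕ (Fin d ⊕ Fin d)) F) *ᵥ v) =
          Cfsg.quadFormOdd d F v) ∧
      (x : Matrix (Unit ⊕ (Fin d ⊕ Fin d)) (Unit ⊕ (Fin d ⊕ Fin d)) F) ^ r = 1 ∧
      (x : Matrix (Unit ⊕ (Fin d ⊕ Fin d)) (Unit ⊕ (Fin d ⊕ Fin d)) F).charpoly =
        chi S a (2 * d + 1 - i * ∑ π, a π) := by
  classical
  have h2 := two_ne_zero_of_odd hodd
  obtain ⟨y, hyQ, hyr, hyχ⟩ := exists_o_chi p h2 hS hr hr2 hrF dg hdg d a ha hev hle
  have hyy' : y * y ^ (r - 1) = 1 := by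
    rw [← pow_succ', Nat.sub_add_cancel hr.pos, hyr]
  have hy'y : y ^ (r - 1) * y = 1 := mul_eq_one_comm.mp hyy'
  obtain ⟨x, hx⟩ : ∃ x : GL (Unit ⊕ (Fin d ⊕ Fin d)) F,
      (x : Matrix (Unit ⊕ (Fin d ⊕ Fin d)) (Unit ⊕ (Fin d ⊕ Fin d)) F) = y :=
    ⟨⟨y, y ^ (r - 1), hyy', hy'y⟩, rfl⟩
  have hxr : x ^ r = 1 := by
    apply Units.ext
    rw [Units.val_pow_eq_pow_val, hx, hyr]
    rfl
  have hx1 : x ≠ 1 := by
    intro h1
    have h3 : y = 1 := by rw [← hx, h1]; rfl
    have hfix := SpImprim.finrank_fix_of_chi hS hrF y hyr a _ hyχ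
    have h7 : SpImprim.fixS (Matrix.toLin' y) = ⊤ := by
      rw [eq_top_iff]
      intro v _
      rw [SpImprim.mem_fixS, h3, Matrix.toLin'_one]
      rfl
    rw [h7, finrank_top, Module.finrank_fintype_fun_eq_card] at hfix
    simp only [Fintype.card_sum, Fintype.card_fin, Fintype.card_unit] at hfix
    omega
  have : Fact r.Prime := ⟨hr⟩
  refine ⟨x, ?_, orderOf_eq_prime hxr hx1, ?_, ?_, ?_⟩
  · exact hOdd d hodd x r (hr.odd_of_ne_two hr2) hxr (fun v => by rw [hx]; exact hyQ v)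
  · intro v
    rw [hx]
    exact hyQ v
  · rw [hx, hyr]
  · rw [hx, hyχ]

/-- The case of odd primes different from the characteristic. -/
theorem main_odd (hOW : PkgOW.{u}) (hFlag : PkgFlag.{u}) (hOdd : PkgOdd.{u})
    (hCount : PkgCount.{u}) {p q : ℕ} [Fact p.Prime] [CharP F p] (hq : Fintype.card F = q)
    (hqodd : Odd q) (d m : ℕ)
    (hm : 1 ≤ m) (hmd : m ≤ d) (r : ℕ) [Fact r.Prime] (hr2 : r ≠ 2) (hrp : r ≠ p)
    (hrΩ : r ∣ Nat.card {W : Submodule F (Unit ⊕ (Fin d ⊕ Fin d) → F) //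
      finrank F W = m ∧ ∀ w ∈ W, Cfsg.quadFormOdd d F w = 0})
    (i c : ℕ) (hi : i = orderOf (q : ZMod r)) (hc : c = if Even i then i else 2 * i) :
    (∀ x : GL (Unit ⊕ (Fin d ⊕ Fin d)) F, x ∈ Cfsg.Geo.omegaGL (Cfsg.quadFormOdd d F) →
      orderOf x = r →
      ∃ W : Submodule F (Unit ⊕ (Fin d ⊕ Fin d) → F), finrank F W = m ∧
        (∀ w ∈ W, Cfsg.quadFormOdd d F w = 0) ∧
        W.map (Matrix.toLin'
          (x : Matrix (Unit ⊕ (Fin d ⊕ Fin d)) (Unit ⊕ (Fin d ⊕ Fin d)) F)) ≤ W) ↔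
    (i ≤ m ∧ 2 * (m % i) ≤ (2 * d) % c ∧
      (Odd i ∨ (r - 1) / i + 2 * (m / i) ≤ (2 * d) / i)) := by
  classical
  have hr : r.Prime := Fact.out
  have hodd : Odd (Fintype.card F) := by rw [hq]; exact hqodd
  have h2 := two_ne_zero_of_odd hodd
  obtain ⟨S, dg, hS, hne, hdg, hdd, hdev, hdodd⟩ := SpImprim.exists_data hq r hr2 hrp i hi
  have hrF : (r : F) ≠ 0 := Elusive.natCast_ne_zero_of_ne r hrp
  have hi0 : 0 < i := by
    rw [hi]
    exact Elusive.orderOf_pos_of_ne hq r hrp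
  have hcard := SpIso.card_factors hq hrp hi hS
  have ht : (r - 1) / i = Fintype.card S := by
    rw [← hcard, Nat.mul_div_cancel _ hi0, Fintype.card_coe]
  have hd0 : 0 < d := by omega
  obtain ⟨π₀, hπ₀⟩ := hne
  obtain ⟨P₀, -⟩ : ∃ P₀ : S, P₀ = ⟨π₀, hπ₀⟩ := ⟨_, rfl⟩
  have hpar : ((∀ π, dg π = π) ∧ c = i) ∨ ((∀ π, dg π ≠ π) ∧ c = 2 * i) := by
    by_cases hev : Even i
    · left
      exact ⟨hdev hev, by rw [hc, if_pos hev]⟩
    · right
      exact ⟨hdodd (Nat.not_even_iff_odd.1 hev), by rw [hc, if_neg hev]⟩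
  have hceven : Even c := by
    rw [hc]
    split_ifs with h
    · exact h
    · exact even_two_mul i
  obtain ⟨c', hc'⟩ := hceven
  have hme : (2 * d) % c = 2 * (d % c') := by
    rw [show c = 2 * c' by omega, Nat.mul_mod_mul_left]
  have hc0 : 0 < c := by
    rcases hpar with ⟨-, h⟩ | ⟨-, h⟩ <;> omega
  have hci : c ≤ 2 * i := by
    rcases hpar with ⟨-, h⟩ | ⟨-, h⟩ <;> omega
  have hcdvd : ∀ N : ℕ, Even N → i ∣ N → c ∣ N := by
    intro N hN hiN
    rcases hpar with ⟨-, h⟩ | ⟨hfpf, h⟩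
    · rw [h]
      exact hiN
    · rw [h]
      have hodd' : Odd i := by
        by_contra hev
        rw [Nat.not_odd_iff_even] at hev
        exact hfpf P₀ (hdev hev _)
      exact Nat.Coprime.mul_dvd_of_dvd_of_dvd (Nat.coprime_two_left.2 hodd') hN.two_dvd hiN
  obtain ⟨j, hjm, hj⟩ := exists_of_dvd_ts hCount hodd r d m hmd hrΩ
  rw [hq, ← hi] at hj
  have hcj : c ∣ 2 * (d - j) := hcdvd _ (even_two_mul _) hj
  have hk2 : (2 * d) % c + 2 ≤ 2 * m := by
    obtain ⟨u, hu⟩ := hcj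
    have h1 : 2 * d = 2 * j + c * u := by omega
    have h2' : (2 * d) % c = (2 * j) % c := by rw [h1, Nat.add_mul_mod_self_left]
    have h3 := Nat.mod_le (2 * j) c
    omega
  have hc2d : c ≤ 2 * d := by
    have h1 := Nat.le_of_dvd (by omega) hcj
    omega
  have hmodlt := Nat.mod_lt (2 * d) hc0
  have hQc : ∀ v, (Cfsg.Agent.Lib.Helper14.oddQF d F) v = Cfsg.quadFormOdd d F v := by
    intro v
    rw [Cfsg.Agent.Lib.Helper14.oddQF_coe]
  have hQnd := Cfsg.Agent.Lib.Helper14.oddQF_nondegenerate d F h2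
  constructor
  · intro h
    obtain ⟨a, hasym, hasum⟩ : ∃ a : S → ℕ, (∀ π, a (dg π) = a π) ∧
        i * ∑ π, a π = c * ((2 * d) / c) := by
      rcases hpar with ⟨hid, hci'⟩ | ⟨hfpf, hci'⟩
      · refine ⟨fun π => if π = P₀ then (2 * d) / c else 0, fun π => by rw [hid π], ?_⟩
        rw [Finset.sum_ite_eq' Finset.univ P₀, if_pos (Finset.mem_univ _), hci']
      · refine ⟨fun π => (if π = P₀ then (2 * d) / c else 0) +
          (if π = dg P₀ then (2 * d) / c else 0), ?_, ?_⟩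
        · intro π
          beta_reduce
          have h1 : (dg π = P₀) ↔ (π = dg P₀) :=
            ⟨fun h => by rw [← h, hdd], fun h => by rw [h, hdd]⟩
          have h2' : (dg π = dg P₀) ↔ (π = P₀) :=
            ⟨fun h => by rw [← hdd π, h, hdd], fun h => by rw [h]⟩
          rw [if_congr h1 rfl rfl, if_congr h2' rfl rfl, add_comm]
        · rw [Finset.sum_add_distrib, Finset.sum_ite_eq' Finset.univ P₀,
            Finset.sum_ite_eq' Finset.univ (dg P₀), if_pos (Finset.mem_univ _),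
            if_pos (Finset.mem_univ _), hci']
          ring
    have hle : i * ∑ π, a π ≤ 2 * d := by
      rw [hasum]
      exact Nat.mul_div_le _ _
    have hpos : 0 < i * ∑ π, a π := by
      rw [hasum]
      exact Nat.mul_pos hc0 (Nat.div_pos hc2d hc0)
    have haev : Even (i * ∑ π, a π) := by
      rw [hasum]
      exact Even.mul_right ⟨c', hc'⟩ _
    obtain ⟨x₁, hx₁Ω, hx₁ord, hx₁Q, hx₁r, hx₁χ⟩ :=
      exists_o_test hOdd hodd p hS hr hr2 hrF dg hdg d a hasym haev hle hpos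
    obtain ⟨W, hWm, hWts, hWinv⟩ := h x₁ hx₁Ω hx₁ord
    obtain ⟨a₁, h1, -, h3⟩ := hFlag (Cfsg.Agent.Lib.Helper14.oddQF d F) hQnd hS hrF dg hdg hdd
      (x₁ : Matrix (Unit ⊕ (Fin d ⊕ Fin d)) (Unit ⊕ (Fin d ⊕ Fin d)) F)
      (fun v => by rw [hQc, hQc]; exact hx₁Q v) hx₁r a _ hx₁χ W m hWm
      (fun w hw => by rw [hQc]; exact hWts w hw) hWinv
    have hk₀ : 2 * d + 1 - i * ∑ π, a π = (2 * d) % c + 1 := by
      rw [hasum]
      have := Nat.div_add_mod (2 * d) c
      omega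
    rw [hk₀] at h3
    have hmod : m % i = m - i * ∑ π, a₁ π := by
      have h4 : m = (m - i * ∑ π, a₁ π) + i * ∑ π, a₁ π := by omega
      have h5 : m - i * ∑ π, a₁ π < i := by omega
      conv_lhs => rw [h4]
      rw [Nat.add_mul_mod_self_left, Nat.mod_eq_of_lt h5]
    have hk : 2 * (m % i) ≤ (2 * d) % c := by
      rw [hmod]
      omega
    have him : i ≤ m := by
      by_contra hlt
      have h4 : m % i = m := Nat.mod_eq_of_lt (by omega)
      omega
    refine ⟨him, hk, ?_⟩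
    by_contra hcon
    push Not at hcon
    obtain ⟨hnodd, hlt⟩ := hcon
    have hev : Even i := Nat.not_odd_iff_even.1 hnodd
    have hid := hdev hev
    have hci' : c = i := by rw [hc, if_pos hev]
    have hm'1 : 1 ≤ m / i := Nat.div_pos him hi0
    have hMi := Nat.mul_div_le m i
    have hNi := Nat.div_add_mod (2 * d) i
    have hn' : 2 * (m / i) ≤ (2 * d) / i := by
      rw [Nat.le_div_iff_mul_le hi0]
      calc 2 * (m / i) * i = 2 * (i * (m / i)) := by ring
        _ ≤ 2 * d := by omega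
    obtain ⟨O, hOsub, hOcard⟩ := Finset.exists_subset_card_eq
      (s := (Finset.univ : Finset S).erase P₀) (n := (2 * d) / i - 2 * (m / i)) (by
        rw [Finset.card_erase_of_mem (Finset.mem_univ _), Finset.card_univ, ← ht]
        omega)
    have hP₀O : P₀ ∉ O := fun h => (Finset.mem_erase.1 (hOsub h)).1 rfl
    obtain ⟨b, hb⟩ : ∃ b : S → ℕ, b = fun π => (if π = P₀ then 2 * (m / i) - 1 else 0) +
        (if π ∈ O then 1 else 0) := ⟨_, rfl⟩
    have hbsum : ∑ π, b π = (2 * d) / i - 1 := by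
      rw [hb, Finset.sum_add_distrib, Finset.sum_ite_eq' Finset.univ P₀,
        if_pos (Finset.mem_univ _), Finset.sum_boole, Finset.filter_mem_eq_inter,
        Finset.univ_inter, hOcard]
      simp only [Nat.cast_id]
      omega
    have hbsym : ∀ π, b (dg π) = b π := fun π => by rw [hid π]
    have hble : i * ∑ π, b π ≤ 2 * d := by
      rw [hbsum]
      exact (Nat.mul_le_mul_left i (Nat.sub_le _ _)).trans (Nat.mul_div_le _ _)
    have hbpos : 0 < i * ∑ π, b π := by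
      rw [hbsum]
      exact Nat.mul_pos hi0 (by omega)
    have hbev : Even (i * ∑ π, b π) := Even.mul_right hev _
    obtain ⟨x₂, hx₂Ω, hx₂ord, hx₂Q, hx₂r, hx₂χ⟩ :=
      exists_o_test hOdd hodd p hS hr hr2 hrF dg hdg d b hbsym hbev hble hbpos
    obtain ⟨W₂, hW₂m, hW₂ts, hW₂inv⟩ := h x₂ hx₂Ω hx₂ord
    obtain ⟨b₁, g1, g2, g3⟩ := hFlag (Cfsg.Agent.Lib.Helper14.oddQF d F) hQnd hS hrF dg hdg hdd
      (x₂ : Matrix (Unit ⊕ (Fin d ⊕ Fin d)) (Unit ⊕ (Fin d ⊕ Fin d)) F)
      (fun v => by rw [hQc, hQc]; exact hx₂Q v) hx₂r b _ hx₂χ W₂ m hW₂m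
      (fun w hw => by rw [hQc]; exact hW₂ts w hw) hW₂inv
    have hb₁0 : ∀ π, π ≠ P₀ → b₁ π = 0 := by
      intro π hπ
      have h4 := g2 π
      rw [hid π, hb] at h4
      beta_reduce at h4
      have h5 : (if π = P₀ then 2 * (m / i) - 1 else 0) + (if π ∈ O then 1 else 0) ≤ 1 := by
        rw [if_neg hπ]
        split_ifs <;> omega
      have h6 : b₁ π + b₁ π ≤ 1 := h4.trans h5
      omega
    have hb₁P : b₁ P₀ ≤ m / i - 1 := by
      have h4 := g2 P₀
      rw [hid P₀, hb] at h4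
      beta_reduce at h4
      have h5 : (if P₀ = P₀ then 2 * (m / i) - 1 else 0) + (if P₀ ∈ O then 1 else 0) =
          2 * (m / i) - 1 := by
        rw [if_pos rfl, if_neg hP₀O, add_zero]
      have h6 : b₁ P₀ + b₁ P₀ ≤ 2 * (m / i) - 1 := h4.trans h5.le
      omega
    have hb₁sum : ∑ π, b₁ π = b₁ P₀ :=
      Finset.sum_eq_single P₀ (fun π _ hπ => hb₁0 π hπ)
        (fun h => absurd (Finset.mem_univ _) h)
    rw [hb₁sum] at g1 g3
    rw [hbsum] at g3
    have h7 : i * b₁ P₀ ≤ i * (m / i - 1) := Nat.mul_le_mul_left i hb₁P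
    have h8 : i * (m / i - 1) = i * (m / i) - i := by
      rw [Nat.mul_sub, mul_one]
    have h9 : i * ((2 * d) / i - 1) = i * ((2 * d) / i) - i := by
      rw [Nat.mul_sub, mul_one]
    have h10 : i ≤ i * (m / i) := Nat.le_mul_of_pos_right i (by omega)
    have h11 : i ≤ i * ((2 * d) / i) := Nat.le_mul_of_pos_right i (by omega)
    have h12 := Nat.mod_lt (2 * d) hi0
    rw [h9] at g3
    rw [hci'] at hme
    obtain ⟨i', hi'⟩ := hev
    omega
  · rintro ⟨him, hk, hoddi⟩ x hxΩ hxord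
    obtain ⟨y, hy⟩ : ∃ y : Matrix (Unit ⊕ (Fin d ⊕ Fin d)) (Unit ⊕ (Fin d ⊕ Fin d)) F,
        y = (x : Matrix (Unit ⊕ (Fin d ⊕ Fin d)) (Unit ⊕ (Fin d ⊕ Fin d)) F) := ⟨_, rfl⟩
    rw [← hy]
    have hyr : y ^ r = 1 := by
      rw [hy, ← Units.val_pow_eq_pow_val, ← hxord, pow_orderOf_eq_one]
      rfl
    have hyQ : ∀ v, Cfsg.quadFormOdd d F (y *ᵥ v) = Cfsg.quadFormOdd d F v := by
      unfold Cfsg.Geo.omegaGL at hxΩ
      obtain ⟨g, -, hg⟩ := Subgroup.mem_map.1 hxΩ
      have h1 : x ∈ Cfsg.isometryGroup F (Cfsg.quadFormOdd d F) := by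
        rw [← hg]
        exact g.2
      rw [hy]
      exact (Cfsg.Agent.Lib.Helper14.mem_isometryGroup_iff _ x).1 h1
    have hcardι : Fintype.card (Unit ⊕ (Fin d ⊕ Fin d)) = 2 * d + 1 := by
      simp only [Fintype.card_sum, Fintype.card_fin, Fintype.card_unit]
      omega
    obtain ⟨a, hale0, hχ, hasym⟩ := symm_of_o (Cfsg.Agent.Lib.Helper14.oddQF d F) hQnd hS hr.pos
      dg hdg hdd y (fun v => by rw [hQc, hQc]; exact hyQ v) hyr (2 * d + 1) hcardι
    have hMi := Nat.mul_div_le m i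
    have hMm := Nat.div_add_mod m i
    rcases hpar with ⟨hid, hci'⟩ | ⟨hfpf, hci'⟩
    · have hEv : ¬ Odd i := fun ho => hdodd ho P₀ (hid _)
      have hev : Even i := Nat.not_odd_iff_even.1 hEv
      have haev : Even (i * ∑ π, a π) := Even.mul_right hev _
      have hale : i * ∑ π, a π ≤ 2 * d := by
        obtain ⟨t, ht'⟩ := haev
        omega
      have hT : Fintype.card S + 2 * (m / i) ≤ (2 * d) / i := by
        rw [← ht]
        exact hoddi.resolve_left hEv
      obtain ⟨h, hh1, hh2⟩ := (SpIso.exists_half dg hdd a hasym).1 hid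
      obtain ⟨a₁, ha₁le, ha₁sum⟩ := Decomp.exists_sub h (min (∑ π, h π) (m / i))
        (min_le_left _ _)
      have hNi := Nat.div_add_mod (2 * d) i
      have hsa : ∑ π, a π ≤ (2 * d) / i := by
        rw [Nat.le_div_iff_mul_le hi0, mul_comm]
        exact hale
      have hsa' : i * ∑ π, a π ≤ i * ((2 * d) / i) := Nat.mul_le_mul_left i hsa
      refine exists_ts_of_split_o hOW p h2 hS hr hr2 hrF dg hdg hdd y hyQ hyr a hasym haev hale
        hχ a₁ ?_ ?_ ?_
      · rw [ha₁sum]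
        exact (Nat.mul_le_mul_left i (min_le_right _ _)).trans hMi
      · intro π
        exact (Nat.add_le_add (ha₁le π) (ha₁le (dg π))).trans (hh1 π)
      · rw [ha₁sum]
        rw [hci'] at hk
        by_cases hβ : m / i ≤ ∑ π, h π
        · rw [min_eq_right hβ]
          omega
        · rw [min_eq_left (by omega)]
          have h4 : ∑ π, a π ≤ 2 * ∑ π, h π + Fintype.card S := by
            rw [Finset.mul_sum, ← Finset.card_univ, Finset.card_eq_sum_ones,
              ← Finset.sum_add_distrib]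
            apply Finset.sum_le_sum
            intro π _
            rw [hh2 π]
            omega
          have h5 : i * ∑ π, a π ≤ 2 * (i * ∑ π, h π) + i * Fintype.card S := by
            calc i * ∑ π, a π ≤ i * (2 * ∑ π, h π + Fintype.card S) :=
                  Nat.mul_le_mul_left i h4
              _ = 2 * (i * ∑ π, h π) + i * Fintype.card S := by ring
          have h6 : i * Fintype.card S + 2 * (i * (m / i)) ≤ i * ((2 * d) / i) := by
            calc i * Fintype.card S + 2 * (i * (m / i)) = i * (Fintype.card S + 2 * (m / i)) := by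
                  ring
              _ ≤ i * ((2 * d) / i) := Nat.mul_le_mul_left i hT
          have h7 : i * ∑ π, h π ≤ i * (m / i) := Nat.mul_le_mul_left i (by omega)
          omega
    · obtain ⟨h, hh1, hh2⟩ := (SpIso.exists_half dg hdd a hasym).2 hfpf
      obtain ⟨a₁, ha₁le, ha₁sum⟩ := Decomp.exists_sub h (min (∑ π, h π) (m / i))
        (min_le_left _ _)
      have hNc := Nat.div_add_mod (2 * d) c
      have hia : i * ∑ π, a π = c * ∑ π, h π := by
        rw [← hh2, hci']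
        ring
      have haev : Even (i * ∑ π, a π) := by
        rw [hia]
        exact Even.mul_right ⟨c', hc'⟩ _
      have hale : i * ∑ π, a π ≤ 2 * d := by
        obtain ⟨t, ht'⟩ := haev
        omega
      have hsh : ∑ π, h π ≤ (2 * d) / c := by
        rw [Nat.le_div_iff_mul_le hc0, mul_comm, ← hia]
        exact hale
      have hsh' : c * ∑ π, h π ≤ c * ((2 * d) / c) := Nat.mul_le_mul_left c hsh
      refine exists_ts_of_split_o hOW p h2 hS hr hr2 hrF dg hdg hdd y hyQ hyr a hasym haev hale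
        hχ a₁ ?_ ?_ ?_
      · rw [ha₁sum]
        exact (Nat.mul_le_mul_left i (min_le_right _ _)).trans hMi
      · intro π
        exact (Nat.add_le_add (ha₁le π) (ha₁le (dg π))).trans (hh1 π)
      · rw [ha₁sum, hia]
        by_cases hβ : m / i ≤ ∑ π, h π
        · rw [min_eq_right hβ]
          omega
        · rw [min_eq_left (by omega)]
          have h7 : i * ∑ π, h π ≤ i * (m / i) := Nat.mul_le_mul_left i (by omega)
          have h8 : c * ∑ π, h π = 2 * (i * ∑ π, h π) := by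
            rw [hci']
            ring
          omega

end final

section assembly

variable {F : Type u} [Field F] [Fintype F]

/-- The statement of S5972, from the packages. -/
theorem main (hOW : PkgOW.{u}) (hFlag : PkgFlag.{u}) (hOdd : PkgOdd.{u})
    (hCount : PkgCount.{u}) (hNec : PkgInv2Nec.{u}) (hSuf : PkgInv2Suf.{u})
    {p : ℕ} [Fact p.Prime] [CharP F p] {q : ℕ} (hq : Fintype.card F = q) (hqodd : Odd q)
    (d m : ℕ) (hd : 3 ≤ d) (hm : 1 ≤ m) (hmd : m ≤ d)
    (r : ℕ) [Fact r.Prime]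
    (hrΩ : r ∣ Nat.card {W : Submodule F (Unit ⊕ (Fin d ⊕ Fin d) → F) //
      Module.finrank F ↥W = m ∧ (∀ w ∈ W, Cfsg.quadFormOdd d F w = 0)})
    (i c : ℕ) (hi : i = orderOf (q : ZMod r)) (hc : c = if Even i then i else 2 * i) :
    (∀ x : GL (Unit ⊕ (Fin d ⊕ Fin d)) F, x ∈ Cfsg.Geo.omegaGL (Cfsg.quadFormOdd d F) →
      orderOf x = r →
      ∃ W : Submodule F (Unit ⊕ (Fin d ⊕ Fin d) → F), Module.finrank F ↥W = m ∧
        (∀ w ∈ W, Cfsg.quadFormOdd d F w = 0) ∧
        W.map (Matrix.toLin'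
          (x : Matrix (Unit ⊕ (Fin d ⊕ Fin d)) (Unit ⊕ (Fin d ⊕ Fin d)) F)) ≤ W) ↔
    ((r = 2 ∧ (m < d ∨ q % 4 = 1)) ∨
     (r ≠ p ∧ 2 < r ∧ i ≤ m ∧ 2 * (m % i) < (2 * d + 1) % c ∧
       (Odd i ∨ (r - 1) / i + 2 * (m / i) ≤ (2 * d + 1) / i))) := by
  have hr : r.Prime := Fact.out
  have hodd : Odd (Fintype.card F) := by rw [hq]; exact hqodd
  have hrp : r ≠ p := by
    rintro rfl
    exact not_char_dvd_ts hCount hodd r d m hmd hrΩ
  by_cases hr2 : r = 2
  · subst hr2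
    constructor
    · intro h
      left
      refine ⟨rfl, ?_⟩
      by_contra hcon
      push Not at hcon
      obtain ⟨h1, h2⟩ := hcon
      have hmd' : m = d := by omega
      have hq3 : Fintype.card F % 4 = 3 := by
        rw [hq]
        obtain ⟨t, ht⟩ := hqodd
        omega
      obtain ⟨x, hxΩ, hxord, hx⟩ := hNec (F := F) d (by omega) hq3
      obtain ⟨W, hWm, hWts, hWinv⟩ := h x hxΩ hxord
      exact hx W (by rw [hWm, hmd']) hWts hWinv
    · rintro (⟨-, h⟩ | ⟨-, h, -⟩)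
      · intro x hxΩ hxord
        exact hSuf d m hodd hmd (by rw [hq]; exact h) x hxΩ hxord
      · omega
  · rw [main_odd hOW hFlag hOdd hCount hq hqodd d m hm hmd r hr2 hrp hrΩ i c hi hc]
    have h2r : 2 < r := by
      have := hr.two_le
      omega
    have hi0 : 0 < i := by
      rw [hi]
      exact Elusive.orderOf_pos_of_ne hq r hrp
    have hceven : Even c := by
      rw [hc]
      split_ifs with h
      · exact h
      · exact even_two_mul i
    have hc0 : 0 < c := by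
      rw [hc]
      split_ifs with h
      · exact hi0
      · omega
    have e1 : (2 * d + 1) % c = (2 * d) % c + 1 := by
      obtain ⟨c', hc'⟩ := hceven
      have h1 : (2 * d) % c = 2 * (d % c') := by
        rw [show c = 2 * c' by omega, Nat.mul_mod_mul_left]
      have h2 : d % c' < c' := Nat.mod_lt _ (by omega)
      have h3 := Nat.div_add_mod (2 * d) c
      have h4 : 2 * d + 1 = ((2 * d) % c + 1) + c * ((2 * d) / c) := by omega
      have h5 : (2 * d) % c + 1 < c := by omega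
      calc (2 * d + 1) % c = (((2 * d) % c + 1) + c * ((2 * d) / c)) % c := by rw [← h4]
        _ = ((2 * d) % c + 1) % c := Nat.add_mul_mod_self_left _ _ _
        _ = (2 * d) % c + 1 := Nat.mod_eq_of_lt h5
    have e2 : Even i → (2 * d + 1) / i = (2 * d) / i := by
      intro hev
      obtain ⟨i', hi'⟩ := hev
      have h1 : (2 * d) % i = 2 * (d % i') := by
        rw [show i = 2 * i' by omega, Nat.mul_mod_mul_left]
      have h2 : d % i' < i' := Nat.mod_lt _ (by omega)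
      have h3 := Nat.div_add_mod (2 * d) i
      have h4 : 2 * d + 1 = ((2 * d) % i + 1) + i * ((2 * d) / i) := by omega
      have h5 : (2 * d) % i + 1 < i := by omega
      calc (2 * d + 1) / i = (((2 * d) % i + 1) + i * ((2 * d) / i)) / i := by rw [← h4]
        _ = ((2 * d) % i + 1) / i + (2 * d) / i := Nat.add_mul_div_left _ _ hi0
        _ = (2 * d) / i := by rw [Nat.div_eq_of_lt h5, zero_add]
    constructor
    · rintro ⟨h1, h2, h3⟩
      right
      refine ⟨hrp, h2r, h1, by rw [e1]; omega, ?_⟩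
      rcases h3 with h3 | h3
      · exact Or.inl h3
      · by_cases hoi : Odd i
        · exact Or.inl hoi
        · right
          rw [e2 (Nat.not_odd_iff_even.1 hoi)]
          exact h3
    · rintro (⟨h, -⟩ | ⟨-, -, h1, h2, h3⟩)
      · exact absurd h hr2
      · refine ⟨h1, by rw [e1] at h2; omega, ?_⟩
        rcases h3 with h3 | h3
        · exact Or.inl h3
        · by_cases hoi : Odd i
          · exact Or.inl hoi
          · right
            rw [e2 (Nat.not_odd_iff_even.1 hoi)] at h3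
            exact h3

end assembly

end Cfsg.Agent.Lib.Helper40.OTS
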